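import Mathlib
import Cfsg.Agent.Lib.Blocks.Cover2

/-!
# A stable covered block with defect group `P ∩ N`
-/

set_option linter.unusedSectionVars false
set_option autoImplicit false
set_option linter.style.haveILetI false

namespace Cfsg.Agent.Lib.Blocks.Cover3

open Cfsg MonoidAlgebra
open Cfsg.Agent.Lib.Blocks.Local Cfsg.Agent.Lib.Blocks.Central Cfsg.Agent.Lib.Blocks.Brauer
open Cfsg.Agent.Lib.Blocks.Induced Cfsg.Agent.Lib.Blocks.Defect Cfsg.Agent.Lib.Blocks.Defect2
open Cfsg.Agent.Lib.Char.Basic Cfsg.Agent.Lib.Char.Ortho Cfsg.Agent.Lib.Char.Complete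
open Cfsg.Agent.Lib.Char.Induced Cfsg.Agent.Lib.BlockT.NormalP Cfsg.Agent.Lib.BlockT.Fong
open Cfsg.Agent.Lib.BlockH.BrauerMap Cfsg.Agent.Lib.BlockT.Normal Cfsg.Agent.Lib.Blocks.FR2
open Cfsg.Agent.Lib.BlockT.SylowIn Cfsg.Agent.Lib.Blocks.Cover Cfsg.Agent.Lib.Blocks.Cover2
open Cfsg.Agent.Lib.Blocks.Inducing
open scoped ComplexConjugate

universe u

variable {G : Type u} [Group G] [Fintype G] {M : Ideal AlgInt} [hMp : M.IsPrime]
  {N : Subgroup G} [hN : N.Normal] [Fintype N] [Fintype (IrrCharacter N)]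
  [Fintype (IrrCharacter G)] {B : Set (IrrCharacter G)}

theorem conjIrr_mul (g h : G) (θ : IrrCharacter N) :
    conjIrr hN (g * h) θ = conjIrr hN h (conjIrr hN g θ) := by
  exact Subtype.ext (Cfsg.Agent.Lib.Char.Conj.conjOn_mul hN g h θ)

/-- The blocks in a union of blocks. -/
def BlkIn (M : Ideal AlgInt) (A : Set (IrrCharacter N)) : Type _ :=
  {S : Set (IrrCharacter N) // IsPBlock M S ∧ S ⊆ A}

noncomputable instance (A : Set (IrrCharacter N)) : Fintype (BlkIn M A) := by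
  classical
  exact Fintype.ofFinite {S : Set (IrrCharacter N) // IsPBlock M S ∧ S ⊆ A}

theorem blockCoeff_eq_sum_blkIn {A : Set (IrrCharacter N)}
    (hA : ∀ ψ ∈ A, blockOf M (ψ : N → ℂ) ⊆ A) (n : N) :
    blockCoeff A n = ∑ S : BlkIn M A, blockCoeff S.1 n := by
  classical
  simp only [blockCoeff_eq_sum]
  rw [← Finset.mul_sum, Finset.sum_comm]
  congr 1
  refine Fintype.sum_congr _ _ fun ψ => ?_
  by_cases hψ : ψ ∈ A
  · rw [if_pos hψ, Finset.sum_eq_single ⟨blockOf M (ψ : N → ℂ), ⟨ψ, rfl⟩, hA ψ hψ⟩]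
    · rw [if_pos (mem_blockOf_self ψ)]
    · intro S _ hS
      rw [if_neg]
      intro hmem
      apply hS
      apply Subtype.ext
      exact (isPBlock_eq_blockOf S.2.1 hmem)
    · intro h
      exact absurd (Finset.mem_univ _) h
  · rw [if_neg hψ]
    symm
    refine Finset.sum_eq_zero fun S _ => ?_
    rw [if_neg fun h => hψ (S.2.2 h)]

/-- The conjugation action on blocks in `covB`. -/
@[reducible] noncomputable def blkAct (hB : IsPBlock M B) (P : Subgroup G) : MulAction P (BlkIn M (covB N B)) where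
  smul t S := ⟨conjIrr hN (t : G)⁻¹ '' S.1, by
    obtain ⟨θ, hθ⟩ := isPBlock_nonempty S.2.1
    rw [conjIrr_image_eq_blockOf S.2.1 hθ]
    exact ⟨_, rfl⟩, by
    rintro _ ⟨θ, hθ, rfl⟩
    exact conjIrr_mem_covB _ (S.2.2 hθ)⟩
  one_smul S := by
    apply Subtype.ext
    show conjIrr hN ((1 : P) : G)⁻¹ '' S.1 = S.1
    ext θ
    simp only [OneMemClass.coe_one, inv_one, conjIrr_one, Set.image_id']
  mul_smul t u S := by
    apply Subtype.ext
    show conjIrr hN (((t * u : P) : G))⁻¹ '' S.1 = conjIrr hN (t : G)⁻¹ '' (conjIrr hN (u : G)⁻¹ '' S.1)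
    rw [Set.image_image]
    apply Set.image_congr
    intro θ _
    rw [← conjIrr_mul]
    congr 1
    simp

/-- **A stable covered block with a given intersection as defect group.** -/
theorem exists_stable_block {p : ℕ} [hp : Fact p.Prime] (hM : IsPModular p M) (hB : IsPBlock M B)
    {P : Subgroup G} (hP : IsDefectGroup p M B P) :
    ∃ c : Set (IrrCharacter N), IsPBlock M c ∧ (∀ x ∈ P, StabilizesBlock N c x) ∧
      (∃ χ ∈ B, ∃ θ ∈ c, classInner (fun n : N => (χ : G → ℂ) n) (θ : N → ℂ) ≠ 0) ∧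
      IsDefectGroup p M c ((P ⊓ N).subgroupOf N) := by
  classical
  obtain ⟨y, hy, hPy⟩ := isDefectGroup_isSylowIn hP
  have hPp : IsPGroup p P := hPy.isPGroup
  have hPc : ∀ q ∈ P, q * y = y * q := by
    intro q hq
    have := hPy.le hq
    simp only [Subgroup.mem_centralizer_iff, Set.mem_singleton_iff, forall_eq] at this
    exact this.symm
  obtain ⟨n, hn, hPn⟩ := exists_fixed_covB (N := N) hM hB hy.2.1 P hPp hPc
  letI := blkAct (N := N) hB P
  have hA : ∀ ψ ∈ covB N B, blockOf M (ψ : N → ℂ) ⊆ covB N B := fun _ hψ => blockOf_subset_covB hB hψ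
  have hsum := blockCoeff_eq_sum_blkIn (M := M) hA n
  have hsmul : ∀ (t : P) (S : BlkIn M (covB N B)), (t • S).1 = conjIrr hN (t : G)⁻¹ '' S.1 := fun _ _ => rfl
  have key := sum_sub_sum_fixed_mem hM hPp (fun S : BlkIn M (covB N B) => blockCoeff S.1 n)
    (by
      intro t S
      show blockCoeff (t • S).1 n = blockCoeff S.1 n
      rw [hsmul, ← blockCoeff_conjEquiv hN]
      congr 1
      apply Subtype.ext
      rw [Cfsg.Agent.Lib.Char.Conj.coe_conjEquiv]
      have h1 := hPn ((t : G)⁻¹) (P.inv_mem t.2)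
      rw [h1]
      group)
    (fun S => memLocalRing_blockCoeff S.2.1 _)
    (Finset.univ.filter fun S => ∀ q : P, q • S = S) (by simp)
  rw [← hsum] at key
  have h3 : ¬ MemLocalIdeal M (∑ S ∈ Finset.univ.filter (fun S : BlkIn M (covB N B) => ∀ q : P, q • S = S),
      blockCoeff S.1 n) := by
    intro h
    apply hn
    have := memLocalIdeal_add key h
    rwa [sub_add_cancel] at this
  obtain ⟨S, hS, hne⟩ := exists_notMem_of_sum_notMem _ _ h3
  have hfix : ∀ q : P, q • S = S := (Finset.mem_filter.mp hS).2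
  have hc := S.2.1
  refine ⟨S.1, hc, ?_, ?_, ?_⟩
  · intro x hx
    refine ⟨by rw [Subgroup.normalizer_eq_top]; trivial, fun χ hχ => ?_⟩
    refine ⟨conjIrr hN x⁻¹ χ, ?_, ?_⟩
    · have h1 := hfix ⟨x, hx⟩
      have h2 : (conjIrr hN x⁻¹ χ) ∈ ((⟨x, hx⟩ : P) • S).1 := by
        rw [hsmul]
        exact ⟨χ, hχ, rfl⟩
      rwa [h1] at h2
    · intro k k' hk'
      show Cfsg.Agent.Lib.Char.Conj.conjOn hN x⁻¹ χ k' = _
      rw [Cfsg.Agent.Lib.Char.Conj.conjOn_apply]
      have e : (⟨x⁻¹ * (k' : G) * x⁻¹⁻¹, hN.conj_mem k' k'.2 x⁻¹⟩ : N) = k := by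
        apply Subtype.ext
        simp only [hk']
        group
      rw [e]
  · obtain ⟨θ, hθ⟩ := isPBlock_nonempty hc
    obtain ⟨χ, hχ, h⟩ := S.2.2 hθ
    exact ⟨χ, hχ, θ, hθ, h⟩
  · -- the defect group
    obtain ⟨θ, hθ⟩ := isPBlock_nonempty hc
    obtain ⟨χ, hχ, hcon⟩ := S.2.2 hθ
    have hcov : ∃ χ ∈ B, ∃ θ ∈ S.1, classInner (fun n : N => (χ : G → ℂ) n) (θ : N → ℂ) ≠ 0 :=
      ⟨χ, hχ, θ, hθ, hcon⟩
    obtain ⟨Qc, hQc⟩ := exists_isDefectGroup (p := p) hc
    have hRp : IsPGroup p (P ⊓ N : Subgroup G) := hPp.to_le inf_le_left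
    obtain ⟨v, hv⟩ := card_le_of_coeff hM hc hne hRp (fun q hq => hPn q hq.1) hQc
    obtain ⟨x, hx⟩ := weak_knorr hM hB hc hcov hQc hP
    have hcard : Nat.card Qc ≤ Nat.card (P ⊓ N : Subgroup G) := by
      have h1 : Qc.map N.subtype ≤ (P ⊓ N : Subgroup G).map (MulAut.conj x).toMonoidHom := by
        intro q hq
        obtain ⟨q', hq', rfl⟩ := hq
        obtain ⟨r, hr, hre⟩ := hx ⟨q', hq', rfl⟩
        refine ⟨r, ⟨hr, ?_⟩, hre⟩
        have h2 : x * r * x⁻¹ ∈ N := by
          have : (MulAut.conj x).toMonoidHom r = x * r * x⁻¹ := by simp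
          rw [← this, hre]
          exact q'.2
        have := hN.conj_mem _ h2 x⁻¹
        simpa [mul_assoc] using this
      have h2 : Nat.card (Qc.map N.subtype) = Nat.card Qc :=
        Subgroup.card_map_of_injective (Subgroup.subtype_injective _)
      have h3 : Nat.card ((P ⊓ N : Subgroup G).map (MulAut.conj x).toMonoidHom) =
          Nat.card (P ⊓ N : Subgroup G) := card_conj_eq _ _
      rw [← h2, ← h3]
      exact Subgroup.card_le_of_le h1
    have h4 : (P ⊓ N : Subgroup G).subgroupOf N = Qc.map (MulAut.conj v).toMonoidHom := by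
      apply Subgroup.eq_of_le_of_card_ge hv
      have h5 : Nat.card (Qc.map (MulAut.conj v).toMonoidHom) = Nat.card Qc := card_conj_eq _ _
      have h6 : Nat.card ((P ⊓ N : Subgroup G).subgroupOf N) = Nat.card (P ⊓ N : Subgroup G) :=
        Nat.card_congr (Subgroup.subgroupOfEquivOfLe inf_le_right).toEquiv
      rw [h5, h6]
      exact hcard
    rw [h4]
    exact isDefectGroup_conj hQc v

end Cfsg.Agent.Lib.Blocks.Cover3
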