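import Mathlib
import Cfsg.Agent.Lib.Blocks.ExtCrit
import Cfsg.Agent.Lib.Blocks.Cover

/-!
# Stabilizers of blocks of normal subgroups, seen inside an intermediate group

`N ≤ Γ`, `Γ` normalizing `N`.  Transport of blocks of `N` to blocks of `N` viewed as a subgroup of `Γ`.

* `stab_inf_eq`: for `N ≤ L` normal in `G` with `L / N` a `p`-group and `B` covering the block `c` of `N`,
  with a defect group of `B` in `N`: the stabilizer of `c` in `L` is `N`.
-/

set_option linter.unusedSectionVars false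
set_option autoImplicit false
set_option linter.style.haveILetI false

namespace Cfsg.Agent.Lib.Blocks.Sub

open Cfsg MonoidAlgebra
open Cfsg.Agent.Lib.Blocks.Local Cfsg.Agent.Lib.Blocks.Central Cfsg.Agent.Lib.Blocks.Brauer
open Cfsg.Agent.Lib.Blocks.Induced Cfsg.Agent.Lib.Blocks.Heights
open Cfsg.Agent.Lib.Char.Basic Cfsg.Agent.Lib.Char.Ortho Cfsg.Agent.Lib.Char.Complete
open Cfsg.Agent.Lib.Char.Induced Cfsg.Agent.Lib.Char.IndRep Cfsg.Agent.Lib.Char.Clifford
open Cfsg.Agent.Lib.Char.Conj Cfsg.Agent.Lib.Char.CliffordCorr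
open Cfsg.Agent.Lib.BlockH.MaxPair Cfsg.Agent.Lib.BlockH.StabBlock Cfsg.Agent.Lib.BlockH.BrauerMap
open Cfsg.Agent.Lib.BlockH.Transport Cfsg.Agent.Lib.BlockH.Pairs Cfsg.Agent.Lib.Blocks.FMT
open Cfsg.Agent.Lib.BlockT.Normal Cfsg.Agent.Lib.Blocks.ExtFMT Cfsg.Agent.Lib.Blocks.FR
open Cfsg.Agent.Lib.Blocks.FR2 Cfsg.Agent.Lib.Blocks.Stable Cfsg.Agent.Lib.Blocks.Inducing
open Cfsg.Agent.Lib.Blocks.Defect2 Cfsg.Agent.Lib.BlockT.SylowIn Cfsg.Agent.Lib.Blocks.ExtCrit
open scoped ComplexConjugate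

universe u

section Transp

variable {G : Type u} [Group G] [Fintype G] {N Γ : Subgroup G} [Fintype N]

/-- The transport of `N` into `Γ`. -/
noncomputable abbrev sg (hNΓ : N ≤ Γ) : N ≃* N.subgroupOf Γ := (Subgroup.subgroupOfEquivOfLe hNΓ).symm

theorem normal_sg (hnorm : Γ ≤ Subgroup.normalizer (N : Set G)) : (N.subgroupOf Γ).Normal := by
  constructor
  intro n hn g
  rw [Subgroup.mem_subgroupOf] at hn ⊢
  exact (Subgroup.mem_normalizer_iff.mp (hnorm g.2) _).mp hn

theorem conjIrr_sg (hNΓ : N ≤ Γ) (hnorm : Γ ≤ Subgroup.normalizer (N : Set G)) (g : Γ)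
    (θ : IrrCharacter N) :
    conjIrr (normal_sg hnorm) g (irrMap (sg hNΓ) θ) = irrMap (sg hNΓ) (conjI (hnorm g.2) θ) := by
  apply Subtype.ext
  funext k
  rfl

/-- The transported inner product. -/
theorem classInner_sg (hNΓ : N ≤ Γ) [Fintype (N.subgroupOf Γ)] (ξ : Γ → ℂ)
    (θ : IrrCharacter N) :
    classInner (fun k : N.subgroupOf Γ => ξ k) ((irrMap (sg hNΓ) θ : IrrCharacter _) : _ → ℂ) =
      classInner (res hNΓ ξ) (θ : N → ℂ) := by
  rw [classInner, classInner, Nat.card_congr (sg hNΓ).toEquiv.symm]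
  congr 1
  refine (Equiv.sum_comp (sg hNΓ).toEquiv _).symm.trans ?_
  refine Fintype.sum_congr _ _ fun k => ?_
  simp only [irrMap_apply, MulEquiv.toEquiv_eq_coe, EquivLike.coe_coe, MulEquiv.symm_apply_apply]
  rfl

/-- `IsStab` in the intermediate group. -/
theorem isStab_sg (hNΓ : N ≤ Γ) (hnorm : Γ ≤ Subgroup.normalizer (N : Set G))
    {b : Set (IrrCharacter N)} {T : Subgroup G} (hT : ∀ g : Γ, (g : G) ∈ T ↔ ∀ θ ∈ b, conjI (hnorm g.2) θ ∈ b) :
    IsStab (normal_sg hnorm) (blockMap (sg hNΓ) b) (T.subgroupOf Γ) := by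
  intro g
  rw [Subgroup.mem_subgroupOf, hT g]
  constructor
  · rintro h _ ⟨θ, hθ, rfl⟩
    rw [conjIrr_sg hNΓ hnorm]
    exact irrMap_mem_blockMap _ _ (h θ hθ)
  · intro h θ hθ
    have h1 := h _ (irrMap_mem_blockMap (sg hNΓ) b hθ)
    rw [conjIrr_sg hNΓ hnorm] at h1
    obtain ⟨θ₁, hθ₁, he⟩ := h1
    rwa [← (irrEquiv (sg hNΓ)).injective he]

/-- The stabilizer in terms of `conjI`. -/
theorem mem_stabilizes_iff {T : Subgroup G} {b : Set (IrrCharacter N)}
    (hT : ∀ x : G, x ∈ T ↔ StabilizesBlock N b x) {g : G}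
    (hg : g ∈ Subgroup.normalizer (N : Set G)) : g ∈ T ↔ ∀ θ ∈ b, conjI hg θ ∈ b := by
  constructor
  · intro hgT θ hθ
    obtain ⟨θ', hθ', hc⟩ := ((hT g⁻¹).mp (T.inv_mem hgT)).2 θ hθ
    have e : conjI hg θ = θ' := by
      apply Subtype.ext
      funext k
      rw [conjI_apply]
      refine (hc _ k ?_).symm
      rw [coe_conjOfNormalizer]
      group
    rwa [e]
  · intro h
    rw [← T.inv_mem_iff, hT]
    refine ⟨Subgroup.inv_mem _ hg, fun θ hθ => ⟨conjI hg θ, h θ hθ, fun k k' hk' => ?_⟩⟩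
    rw [conjI_apply]
    refine congrArg _ (Subtype.ext ?_)
    rw [coe_conjOfNormalizer, hk']
    group

end Transp

section Mid

variable {G : Type u} [Group G] [Fintype G] {N L : Subgroup G} [Fintype N] [Fintype L]
  [Fintype (IrrCharacter N)] [Fintype (IrrCharacter L)]

/-- Transitivity of constituents along `N ≤ L`. -/
theorem exists_mid_constituent (hNL : N ≤ L) {F : L → ℂ} (hF : IsClassFunction L F) {θ : N → ℂ}
    (h : classInner (res hNL F) θ ≠ 0) :
    ∃ ξ : IrrCharacter L, classInner F (ξ : L → ℂ) ≠ 0 ∧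
      classInner (res hNL (ξ : L → ℂ)) θ ≠ 0 := by
  classical
  by_contra hcon
  push Not at hcon
  apply h
  have h1 := classFunction_eq_sum hF
  have h2 : res hNL F = ∑ ξ : IrrCharacter L, classInner F (ξ : L → ℂ) • res hNL (ξ : L → ℂ) := by
    funext k
    have := congrFun h1 ⟨k, hNL k.2⟩
    simp only [Finset.sum_apply, Pi.smul_apply, smul_eq_mul] at this ⊢
    exact this
  rw [h2, classInner]
  simp only [Finset.sum_apply, Pi.smul_apply, smul_eq_mul, Finset.sum_mul]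
  rw [Finset.sum_comm, Finset.mul_sum]
  refine Finset.sum_eq_zero fun ξ _ => ?_
  by_cases h3 : classInner F (ξ : L → ℂ) = 0
  · simp [h3]
  · have h4 := hcon ξ h3
    rw [classInner] at h4
    have h5 : ∑ n : N, classInner F (ξ : L → ℂ) * res hNL (ξ : L → ℂ) n * conj (θ n) =
        classInner F (ξ : L → ℂ) * ∑ n : N, res hNL (ξ : L → ℂ) n * conj (θ n) := by
      rw [Finset.mul_sum]
      refine Finset.sum_congr rfl fun n _ => ?_
      ring
    rw [h5]
    have h6 : (Nat.card N : ℂ) ≠ 0 := by exact_mod_cast Nat.card_pos.ne'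
    have h7 : ∑ n : N, res hNL (ξ : L → ℂ) n * conj (θ n) = 0 := by
      rcases mul_eq_zero.mp h4 with h8 | h8
      · exact absurd h8 (inv_ne_zero h6)
      · exact h8
    rw [h7, mul_zero, mul_zero]

end Mid

section Main

variable {G : Type u} [Group G] [Fintype G] [Fintype (IrrCharacter G)] {M : Ideal AlgInt} {p : ℕ}
  [hMp : M.IsPrime] [hp : Fact p.Prime] {N L : Subgroup G} [hN : N.Normal] [hL : L.Normal] [Fintype N]
  [Fintype L] [Fintype (IrrCharacter N)] [Fintype (IrrCharacter L)]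

theorem mem_normalizer_of_normal (g : G) : g ∈ Subgroup.normalizer (N : Set G) := by
  rw [Subgroup.mem_normalizer_iff]
  intro n
  constructor
  · intro h
    exact hN.conj_mem n h g
  · intro h
    have := hN.conj_mem _ h g⁻¹
    have e : g⁻¹ * (g * n * g⁻¹) * g⁻¹⁻¹ = n := by group
    rwa [e] at this

/-- A non-member of `N` in `L` has order divisible by `p`. -/
theorem dvd_orderOf_of_notMem (hNL : N ≤ L) (hLN : ∃ k : ℕ, (N.subgroupOf L).index = p ^ k) {t : L}
    (ht : (t : G) ∉ N) : p ∣ orderOf t := by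
  obtain ⟨k, hk⟩ := hLN
  haveI : (N.subgroupOf L).Normal := hN.subgroupOf L
  have hpg : IsPGroup p (L ⧸ N.subgroupOf L) := by
    apply IsPGroup.of_card (n := k)
    rw [← hk]
    rfl
  have hq : ((t : L ⧸ N.subgroupOf L)) ≠ 1 := by
    rw [Ne, QuotientGroup.eq_one_iff, Subgroup.mem_subgroupOf]
    exact ht
  obtain ⟨j, hj⟩ := IsPGroup.iff_orderOf.mp hpg (t : L ⧸ N.subgroupOf L)
  have hj0 : j ≠ 0 := by
    rintro rfl
    rw [pow_zero, orderOf_eq_one_iff] at hj
    exact hq hj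
  have h1 : p ∣ orderOf (t : L ⧸ N.subgroupOf L) := by
    rw [hj]
    exact dvd_pow_self p hj0
  exact h1.trans (orderOf_map_dvd (QuotientGroup.mk' (N.subgroupOf L)) t)

/-- **The stabilizer of a covered block in `L`.** -/
theorem stab_inf_eq (hM : IsPModular p M) (hNL : N ≤ L) (hLN : ∃ k : ℕ, (N.subgroupOf L).index = p ^ k)
    {B : Set (IrrCharacter G)} (hB : IsPBlock M B) {c : Set (IrrCharacter N)} (hc : IsPBlock M c)
    (hcov : ∃ χ ∈ B, ∃ θ ∈ c, classInner (fun n : N => (χ : G → ℂ) n) (θ : N → ℂ) ≠ 0)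
    (hD : ∃ D : Subgroup G, IsDefectGroup p M B D ∧ D ≤ N) {T : Subgroup G}
    (hT : ∀ x : G, x ∈ T ↔ StabilizesBlock N c x) : T ⊓ L = N := by
  classical
  have hnorm : L ≤ Subgroup.normalizer (N : Set G) := fun g _ => mem_normalizer_of_normal g
  have hNT : N ≤ T := by
    intro n hn
    rw [mem_stabilizes_iff hT (mem_normalizer_of_normal n)]
    intro θ hθ
    have e : conjI (mem_normalizer_of_normal n) θ = θ := by
      apply Subtype.ext
      funext k
      rw [conjI_apply]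
      exact isClassFunction_of_isIrrCharacter θ.2 k ⟨n, hn⟩
    rwa [e]
  letI : Fintype (N.subgroupOf L) := Fintype.ofFinite _
  haveI := finite_irrCharacter (G := N.subgroupOf L)
  letI := Fintype.ofFinite (IrrCharacter (N.subgroupOf L))
  letI : Fintype (T.subgroupOf L) := Fintype.ofFinite _
  haveI := finite_irrCharacter (G := T.subgroupOf L)
  letI := Fintype.ofFinite (IrrCharacter (T.subgroupOf L))
  obtain ⟨χ, hχ, θ₀, hθ₀, hcon⟩ := hcov
  obtain ⟨D, hDB, hDN⟩ := hD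
  -- the intermediate character
  have hFcl : IsClassFunction L (fun l : L => (χ : G → ℂ) l) :=
    isClassFunction_of_isCharacter (isCharacter_restrict L (isCharacter_of_isIrrCharacter χ.2))
  obtain ⟨ξ, hξ, hξθ⟩ := exists_mid_constituent hNL hFcl (θ := (θ₀ : N → ℂ)) hcon
  have hNT' : N.subgroupOf L ≤ T.subgroupOf L := Subgroup.subgroupOf_mono _ hNT
  have hS : IsStab (normal_sg hnorm) (blockMap (sg hNL) c) (T.subgroupOf L) :=
    isStab_sg hNL hnorm fun g => mem_stabilizes_iff hT (hnorm g.2)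
  have hc' : IsPBlock M (blockMap (sg hNL) c) := isPBlock_blockMap _ hc
  have hB₁ : IsPBlock M (blockOf M (ξ : L → ℂ)) := ⟨ξ, rfl⟩
  obtain ⟨B', hB', ⟨ψ, hψB', θ, hθ, hcn⟩, hind⟩ := fr_part_three (G := L) hc' hNT' hS hB₁
    ⟨ξ, mem_blockOf_self ξ, irrMap (sg hNL) θ₀, irrMap_mem_blockMap _ _ hθ₀, by
      rw [classInner_sg hNL]
      exact hξθ⟩
  have hψ : omegaHom ψ (eT (normal_sg hnorm) (blockMap (sg hNL) c) hS) = 1 :=
    (omega_eT_eq_one_iff hNT' hS ψ).mpr ⟨θ, hθ, hcn⟩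
  have hB'e := isPBlock_eq_blockOf hB' hψB'
  have hsupp : ∀ t : T.subgroupOf L, (t : L) ∉ N.subgroupOf L →
      blockCoeff (blockOf M (ψ : T.subgroupOf L → ℂ)) t = 0 := by
    intro t ht
    apply Cfsg.Agent.Lib.BlockP.Stable.blockCoeff_eq_zero hM ⟨ψ, rfl⟩
    have h1 : p ∣ orderOf (t : L) := dvd_orderOf_of_notMem hNL hLN (by
      rwa [Subgroup.mem_subgroupOf] at ht)
    rwa [Subgroup.orderOf_coe] at h1
  obtain ⟨y, hy⟩ := exists_isDefectClass (M := M) (B := blockOf M (ψ : T.subgroupOf L → ℂ)) ⟨ψ, rfl⟩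
  obtain ⟨hyN, m, hm, hdef, hidx⟩ := defect_class_of_stable hM hc' hNT' hS hψ hsupp hy
  have hnum := card_centralizer_mul hyN hNT' hidx
  obtain ⟨D₁, hD₁⟩ : ∃ P₁, IsSylowIn p P₁ (Subgroup.centralizer ({y} : Set (T.subgroupOf L))) := by
    obtain ⟨S⟩ : Nonempty (Sylow p (Subgroup.centralizer ({y} : Set (T.subgroupOf L)))) := inferInstance
    exact ⟨_, S, rfl⟩
  have hD₁d : IsDefectGroup p M (blockOf M (ψ : T.subgroupOf L → ℂ)) D₁ :=
    isDefectGroup_of_isSylowIn hy hD₁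
  rw [← hB'e] at hD₁d
  have hD₁L := (fr_defect hM hc' hNT' hS hB' ⟨ψ, hψB', θ, hθ, hcn⟩ hind).1 D₁ hD₁d
  obtain ⟨x, hx⟩ := Cfsg.Agent.Lib.Blocks.Cover.weak_knorr (N := L) hM hB hB₁
    ⟨χ, hχ, ξ, mem_blockOf_self ξ, hξ⟩ hD₁L hDB
  have hD₁N : ∀ d ∈ D₁, ((d : L) : G) ∈ N := by
    intro d hd
    have h1 : ((d : L) : G) ∈ ((D₁.map (T.subgroupOf L).subtype).map L.subtype) :=
      ⟨d, ⟨d, hd, rfl⟩, rfl⟩
    obtain ⟨u, hu, he⟩ := hx h1
    rw [← he]
    exact hN.conj_mem u (hDN hu) x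
  -- comparing the orders
  set r := (N.subgroupOf L).relIndex (T.subgroupOf L) with hr
  have hr0 : r ≠ 0 := Subgroup.index_ne_zero_of_finite
  have hval : (Nat.card (Subgroup.centralizer ({y} : Set (T.subgroupOf L)))).factorization p =
      (Nat.card (Subgroup.centralizer ({(⟨y, hyN⟩ : N.subgroupOf L)} : Set (N.subgroupOf L)))).factorization p
        + r.factorization p := by
    have hA : Nat.card (Subgroup.centralizer ({y} : Set (T.subgroupOf L))) ≠ 0 := Nat.card_pos.ne'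
    have hC : Nat.card (Subgroup.centralizer ({(⟨y, hyN⟩ : N.subgroupOf L)} : Set (N.subgroupOf L))) ≠ 0 :=
      Nat.card_pos.ne'
    have hm0 : m ≠ 0 := fun h => hm (h ▸ dvd_zero p)
    have h3 : (Nat.card (Subgroup.centralizer ({y} : Set (T.subgroupOf L))) * m).factorization p =
        (Nat.card (Subgroup.centralizer ({(⟨y, hyN⟩ : N.subgroupOf L)} : Set (N.subgroupOf L))) *
          r).factorization p := by rw [hnum]
    rw [Nat.factorization_mul hA hm0, Nat.factorization_mul hC hr0] at h3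
    simp only [Finsupp.add_apply] at h3
    rw [Nat.factorization_eq_zero_of_not_dvd hm, add_zero] at h3
    exact h3
  have hcard := hD₁.card_eq
  -- `D₁` embeds into the centralizer in `N`
  let E : Subgroup (N.subgroupOf L) := (D₁.map (T.subgroupOf L).subtype).subgroupOf (N.subgroupOf L)
  have hDle : D₁.map (T.subgroupOf L).subtype ≤ N.subgroupOf L := by
    rintro _ ⟨d, hd, rfl⟩
    exact Subgroup.mem_subgroupOf.mpr (hD₁N d hd)
  have hEcard : Nat.card E = Nat.card D₁ := by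
    rw [card_subgroupOf_of_le hDle]
    exact Subgroup.card_map_of_injective (Subgroup.subtype_injective _)
  have hEle : E ≤ Subgroup.centralizer ({(⟨y, hyN⟩ : N.subgroupOf L)} : Set (N.subgroupOf L)) := by
    intro e he
    obtain ⟨d, hd, hde⟩ := Subgroup.mem_subgroupOf.mp he
    rw [Subgroup.mem_centralizer_singleton_iff]
    have h1 := Subgroup.mem_centralizer_singleton_iff.mp (hD₁.le hd)
    have h2 := congrArg (fun k : T.subgroupOf L => (k : L)) h1
    simp only [Subgroup.coe_mul] at h2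
    rw [show (d : L) = (e : L) from hde] at h2
    exact Subtype.ext h2
  have hdvd : Nat.card E ∣
      Nat.card (Subgroup.centralizer ({(⟨y, hyN⟩ : N.subgroupOf L)} : Set (N.subgroupOf L))) :=
    Subgroup.card_dvd_of_le hEle
  rw [hEcard, hcard] at hdvd
  have hle := (Nat.Prime.pow_dvd_iff_le_factorization hp.out Nat.card_pos.ne').mp hdvd
  have hr1 : r.factorization p = 0 := by omega
  -- the index is a power of `p`
  have hrdvd : r ∣ (N.subgroupOf L).index := Subgroup.relIndex_dvd_index_of_normal _ _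
  obtain ⟨k, hk⟩ := hLN
  rw [hk] at hrdvd
  obtain ⟨j, -, hj⟩ := (Nat.dvd_prime_pow hp.out).mp hrdvd
  have hj0 : j = 0 := by
    rw [hj, hp.out.factorization_pow, Finsupp.single_eq_same] at hr1
    exact hr1
  have hrone : r = 1 := by rw [hj, hj0, pow_zero]
  have hle2 : T.subgroupOf L ≤ N.subgroupOf L := Subgroup.relIndex_eq_one.mp hrone
  apply le_antisymm
  · rintro g ⟨hgT, hgL⟩
    have h1 : (⟨g, hgL⟩ : L) ∈ N.subgroupOf L := hle2 (Subgroup.mem_subgroupOf.mpr hgT)
    exact Subgroup.mem_subgroupOf.mp h1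
  · exact le_inf hNT hNL

end Main

end Cfsg.Agent.Lib.Blocks.Sub
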