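import Mathlib
import Cfsg.Agent.Lib.Blocks.Sub
import Cfsg.Agent.Lib.BlockP.InducedDeg

/-!
# Height-zero characters

* `exists_height_zero_induced`: for `b^G = B` of equal defect, a height-zero member of `b` has a height
  zero member of `B` in its induced character with multiplicity prime to `p`.
* `exists_invariant_height_zero`: a `G`-stable block of `N ⊴ G`, `G / N` a `p`-group, has a `G`-invariant
  member of height zero.
-/

set_option linter.unusedSectionVars false
set_option autoImplicit false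
set_option linter.style.haveILetI false

namespace Cfsg.Agent.Lib.Blocks.Height0

open Cfsg MonoidAlgebra
open Cfsg.Agent.Lib.Blocks.Local Cfsg.Agent.Lib.Blocks.Central Cfsg.Agent.Lib.Blocks.Main
open Cfsg.Agent.Lib.Blocks.Induced Cfsg.Agent.Lib.Blocks.Heights
open Cfsg.Agent.Lib.Char.Basic Cfsg.Agent.Lib.Char.Ortho Cfsg.Agent.Lib.Char.Complete
open Cfsg.Agent.Lib.Char.Induced Cfsg.Agent.Lib.Char.IndRep Cfsg.Agent.Lib.Char.Clifford
open Cfsg.Agent.Lib.Char.Conj Cfsg.Agent.Lib.Char.CliffordCorr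
open Cfsg.Agent.Lib.BlockH.Transport Cfsg.Agent.Lib.BlockH.Pairs
open Cfsg.Agent.Lib.BlockT.Normal Cfsg.Agent.Lib.Blocks.ExtFMT
open Cfsg.Agent.Lib.Blocks.FR2 Cfsg.Agent.Lib.Blocks.Stable Cfsg.Agent.Lib.Blocks.Inducing
open Cfsg.Agent.Lib.Blocks.Sub Cfsg.Agent.Lib.Blocks.ExtCrit
open Cfsg.Agent.Lib.BlockP.Defect Cfsg.Agent.Lib.BlockP.InducedDeg
open scoped ComplexConjugate

universe u

section Basic

variable {G : Type u} [Group G] [Fintype G] {p : ℕ} [hp : Fact p.Prime]

theorem minExp_le_card {B : Set (IrrCharacter G)} (hne : B.Nonempty) :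
    minExp p B ≤ (Nat.card G).factorization p := by
  obtain ⟨χ, hχ, h⟩ := exists_minExp p hne
  rw [← h]
  exact (Nat.factorization_le_iff_dvd (Cfsg.Agent.Lib.Char.Degree.charDegree_pos χ.2).ne' Nat.card_pos.ne').mpr
    (Cfsg.Agent.Lib.Char.Degree.charDegree_dvd_card χ.2) p

theorem blockDefect_add_minExp {B : Set (IrrCharacter G)} (hne : B.Nonempty) :
    blockDefect p B + minExp p B = (Nat.card G).factorization p := by
  have := minExp_le_card (p := p) hne
  change (Nat.card G).factorization p - minExp p B + minExp p B = _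
  omega

end Basic

section Induced

variable {G : Type u} [Group G] [Fintype G] [Fintype (IrrCharacter G)] {p : ℕ} [hp : Fact p.Prime]
  {M : Ideal AlgInt} {H : Subgroup G} [Fintype H] [Fintype (IrrCharacter H)]

/-- **Height-zero constituents of induced characters.** -/
theorem exists_height_zero_induced (hM : IsPModular p M) {b : Set (IrrCharacter H)}
    {B : Set (IrrCharacter G)} (hind : IsInducedBlock M H b B) (hdef : blockDefect p b = blockDefect p B)
    {ζ : IrrCharacter H} (hζ : ζ ∈ b) (hζ0 : blockHeight p b (ζ : H → ℂ) = 0) :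
    ∃ χ ∈ B, blockHeight p B (χ : G → ℂ) = 0 ∧
      ∃ a : ℕ, classInner (indFun H (ζ : H → ℂ)) (χ : G → ℂ) = (a : ℂ) ∧ ¬ p ∣ a := by
  classical
  haveI := isPrime_of_pModular hM
  have hΘ : IsCharacter G (indFun H (ζ : H → ℂ)) :=
    isCharacter_indFun H (isCharacter_of_isIrrCharacter ζ.2)
  obtain ⟨χ₀, hχ₀⟩ := isPBlock_nonempty hind.2.1
  obtain ⟨ζ₀, hζ₀⟩ := isPBlock_nonempty hind.1
  set t := H.index * charDegree (ζ : H → ℂ) with ht
  have ht0 : t ≠ 0 := mul_ne_zero Subgroup.index_ne_zero_of_finite (charDegree_ne_zero_irr ζ)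
  have hdeg : indFun H (ζ : H → ℂ) 1 = (t : ℂ) := by
    rw [indFun_one, irr_one_eq, ht]
    push_cast
    rfl
  obtain ⟨n, hn⟩ := exists_nat_blockPart hΘ B
  have h1 := blockPart_indFun_div_sub_mem hM H hind hind.2.1 hζ hχ₀
  rw [if_pos hχ₀, hn, hdeg] at h1
  obtain ⟨hn0, hval⟩ := factorization_eq_of_sub_one_mem hM ht0 h1
  -- the exponent of `n`
  have hnB : n.factorization p = minExp p B := by
    have h2 : (Nat.card H) * H.index = Nat.card G := H.card_mul_index
    have h3 : (Nat.card G).factorization p =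
        (Nat.card H).factorization p + H.index.factorization p := by
      rw [← h2, Nat.factorization_mul Nat.card_pos.ne' Subgroup.index_ne_zero_of_finite]
      rfl
    have h4 : t.factorization p =
        H.index.factorization p + (charDegree (ζ : H → ℂ)).factorization p := by
      rw [ht, Nat.factorization_mul Subgroup.index_ne_zero_of_finite (charDegree_ne_zero_irr ζ)]
      rfl
    have h5 := factorization_charDegree_of_height_zero hζ hζ0
    have h6 := blockDefect_add_minExp (p := p) ⟨ζ₀, hζ₀⟩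
    have h7 := blockDefect_add_minExp (p := p) ⟨χ₀, hχ₀⟩
    omega
  -- `n` as a sum
  have hac : ∀ χ : IrrCharacter G, ∃ a : ℕ, classInner (indFun H (ζ : H → ℂ)) (χ : G → ℂ) = (a : ℂ) :=
    fun χ => exists_nat_classInner hΘ (isCharacter_of_isIrrCharacter χ.2)
  choose a ha using hac
  have hsum : n = ∑ χ : IrrCharacter G, if χ ∈ B then a χ * charDegree (χ : G → ℂ) else 0 := by
    have h2 : (n : ℂ) = ((∑ χ : IrrCharacter G, if χ ∈ B then a χ * charDegree (χ : G → ℂ) else 0 : ℕ) : ℂ) := by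
      rw [← hn, blockPart_apply]
      push_cast
      refine Fintype.sum_congr _ _ fun χ => ?_
      split_ifs
      · rw [ha, irr_one_eq]
      · rfl
    exact_mod_cast h2
  by_contra hcon
  push Not at hcon
  have hdvd : p ^ (minExp p B + 1) ∣ n := by
    rw [hsum]
    refine Finset.dvd_sum fun χ _ => ?_
    split_ifs with hχ
    · have hm := minExp_le p hχ
      have hd0 := charDegree_ne_zero_irr χ
      by_cases hh : blockHeight p B (χ : G → ℂ) = 0
      · have hpa : p ∣ a χ := by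
          by_contra hnd
          exact hnd (hcon χ hχ hh (a χ) (ha χ))
        have hh2 : p ^ minExp p B ∣ charDegree (χ : G → ℂ) :=
          (hp.out.pow_dvd_iff_le_factorization hd0).mpr hm
        rw [pow_succ, mul_comm]
        exact mul_dvd_mul hpa hh2
      · have hh2 : p ^ (minExp p B + 1) ∣ charDegree (χ : G → ℂ) := by
          apply (hp.out.pow_dvd_iff_le_factorization hd0).mpr
          have : (charDegree (χ : G → ℂ)).factorization p - minExp p B ≠ 0 := hh
          omega
        exact hh2.mul_left _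
    · exact dvd_zero _
  have := (hp.out.pow_dvd_iff_le_factorization hn0).mp hdvd
  omega

end Induced

section Invariant

variable {G : Type u} [Group G] [Fintype G] [Fintype (IrrCharacter G)] {p : ℕ} [hp : Fact p.Prime]
  {M : Ideal AlgInt} {N : Subgroup G} [hN : N.Normal] [Fintype N] [Fintype (IrrCharacter N)]

/-- Elements outside `N` have order divisible by `p`. -/
theorem dvd_orderOf_of_notMem' (hLN : ∃ k : ℕ, N.index = p ^ k) {t : G} (ht : t ∉ N) :
    p ∣ orderOf t := by
  obtain ⟨k, hk⟩ := hLN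
  have hpg : IsPGroup p (G ⧸ N) := by
    apply IsPGroup.of_card (n := k)
    rw [← hk]
    rfl
  have hq : ((t : G ⧸ N)) ≠ 1 := by
    rw [Ne, QuotientGroup.eq_one_iff]
    exact ht
  obtain ⟨j, hj⟩ := IsPGroup.iff_orderOf.mp hpg (t : G ⧸ N)
  have hj0 : j ≠ 0 := by
    rintro rfl
    rw [pow_zero, orderOf_eq_one_iff] at hj
    exact hq hj
  have h1 : p ∣ orderOf (t : G ⧸ N) := by
    rw [hj]
    exact dvd_pow_self p hj0
  exact h1.trans (orderOf_map_dvd (QuotientGroup.mk' N) t)

/-- **A stable block, `G/N` a `p`-group, has an invariant member of height zero.** -/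
theorem exists_invariant_height_zero (hM : IsPModular p M) {b : Set (IrrCharacter N)} (hb : IsPBlock M b)
    (hst : ∀ g : G, ∀ θ ∈ b, conjIrr hN g θ ∈ b) (hLN : ∃ k : ℕ, N.index = p ^ k) :
    ∃ θ ∈ b, blockHeight p b (θ : N → ℂ) = 0 ∧ ∀ g : G, conjOn hN g (θ : N → ℂ) = (θ : N → ℂ) := by
  classical
  haveI := isPrime_of_pModular hM
  letI : Fintype (⊤ : Subgroup G) := Fintype.ofFinite _
  haveI := finite_irrCharacter (G := (⊤ : Subgroup G))
  letI := Fintype.ofFinite (IrrCharacter (⊤ : Subgroup G))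
  have hS : IsStab hN b (⊤ : Subgroup G) := fun g => ⟨fun _ => hst g, fun _ => trivial⟩
  have hNT : N ≤ (⊤ : Subgroup G) := le_top
  -- a character over `b`
  obtain ⟨θ₀, hθ₀⟩ := isPBlock_nonempty hb
  obtain ⟨ψ₀, hψ₀⟩ := Cfsg.Agent.Lib.BlockT.NormalP.exists_irr_over (G := (⊤ : Subgroup G))
    (N := N.subgroupOf ⊤) (irrMap (sg hNT) θ₀)
  have hψ₀' : classInner (res hNT (ψ₀ : (⊤ : Subgroup G) → ℂ)) (θ₀ : N → ℂ) ≠ 0 := by
    rwa [classInner_sg hNT] at hψ₀
  have hω₀ : omegaHom ψ₀ (eT hN b hS) = 1 := (omega_eT_eq_one_iff hNT hS ψ₀).mpr ⟨θ₀, hθ₀, hψ₀'⟩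
  have hsupp : ∀ t : (⊤ : Subgroup G), (t : G) ∉ N →
      blockCoeff (blockOf M (ψ₀ : (⊤ : Subgroup G) → ℂ)) t = 0 := by
    intro t ht
    apply Cfsg.Agent.Lib.BlockP.Stable.blockCoeff_eq_zero hM ⟨ψ₀, rfl⟩
    rw [← Subgroup.orderOf_coe]
    exact dvd_orderOf_of_notMem' hLN ht
  have hdef := blockDefect_of_stable hM hb hNT hS hω₀ hsupp
  rw [Subgroup.relIndex_top_right] at hdef
  -- a member of minimal degree
  set B := blockOf M (ψ₀ : (⊤ : Subgroup G) → ℂ) with hB
  have hBne : B.Nonempty := ⟨ψ₀, mem_blockOf_self ψ₀⟩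
  obtain ⟨ψ₁, hψ₁, hψ₁min⟩ := exists_minExp p hBne
  have hω₁ : omegaHom ψ₁ (eT hN b hS) = 1 := by
    have h1 := omegaHom_sub_mem_of_sameBlock (M := M) hψ₁ (eT_mem_localCenter hb hS)
    rw [hω₀] at h1
    have h2 := congrArg (omegaHom ψ₁) (eT_mul_self hNT hS)
    rw [map_mul] at h2
    by_cases h0 : omegaHom ψ₁ (eT hN b hS) = 0
    · rw [h0, sub_zero] at h1
      exact absurd h1 one_notMemLocalIdeal
    · exact mul_left_cancel₀ h0 (by rw [h2, mul_one])
  obtain ⟨θ, hθ, hcon⟩ := (omega_eT_eq_one_iff hNT hS ψ₁).mp hω₁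
  -- exponents
  have hθne : b.Nonempty := ⟨θ, hθ⟩
  have ha := blockDefect_add_minExp (p := p) hθne
  have ha' := blockDefect_add_minExp (p := p) hBne
  have hcard : Nat.card (⊤ : Subgroup G) = Nat.card G := Subgroup.card_top
  rw [hcard] at ha'
  have hidx : (Nat.card G).factorization p = (Nat.card N).factorization p + N.index.factorization p := by
    rw [← N.card_mul_index, Nat.factorization_mul Nat.card_pos.ne' Subgroup.index_ne_zero_of_finite]
    rfl
  have hmin : minExp p B = minExp p b := by omega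
  -- Clifford
  let ψ' : IrrCharacter G := irrMap Subgroup.topEquiv ψ₁
  have hψ'1 : (ψ' : G → ℂ) 1 = (ψ₁ : (⊤ : Subgroup G) → ℂ) 1 := by
    change (ψ₁ : (⊤ : Subgroup G) → ℂ) (Subgroup.topEquiv.symm 1) = _
    rw [map_one]
  have hcon' : classInner (fun n : N => (ψ' : G → ℂ) n) (θ : N → ℂ) ≠ 0 := hcon
  have hcl := clifford_restrict hN ψ'.2 θ.2 hcon'
  obtain ⟨m, hm⟩ := exists_nat_classInner (isCharacter_restrict N (isCharacter_of_isIrrCharacter ψ'.2))
    (isCharacter_of_isIrrCharacter θ.2)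
  have hm0 : m ≠ 0 := by
    rintro rfl
    apply hcon'
    rw [hm]
    simp
  set O := orbitFinset hN (θ : N → ℂ) with hO
  have hO1 : ∀ φ ∈ O, φ 1 = (θ : N → ℂ) 1 := by
    intro φ hφ
    obtain ⟨g, rfl⟩ := (mem_orbitFinset hN _ φ).mp hφ
    exact conjOn_apply_one hN g θ
  have hdegeq : charDegree (ψ₁ : (⊤ : Subgroup G) → ℂ) = m * (O.card * charDegree (θ : N → ℂ)) := by
    have h1 := congrFun hcl 1
    simp only [Pi.smul_apply, Finset.sum_apply, smul_eq_mul, OneMemClass.coe_one] at h1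
    rw [Finset.sum_congr rfl hO1, Finset.sum_const, nsmul_eq_mul, hm, hψ'1, irr_one_eq, irr_one_eq] at h1
    exact_mod_cast h1
  have hOne : O.card ≠ 0 := by
    intro h0
    rw [h0] at hdegeq
    simp only [zero_mul, mul_zero] at hdegeq
    exact charDegree_ne_zero_irr ψ₁ hdegeq
  have hval : (charDegree (ψ₁ : (⊤ : Subgroup G) → ℂ)).factorization p =
      m.factorization p + (O.card.factorization p + (charDegree (θ : N → ℂ)).factorization p) := by
    rw [hdegeq, Nat.factorization_mul hm0 (mul_ne_zero hOne (charDegree_ne_zero_irr θ)),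
      Nat.factorization_mul hOne (charDegree_ne_zero_irr θ)]
    rfl
  have hθmin := minExp_le p hθ
  have hOval : O.card.factorization p = 0 := by omega
  have hθval : (charDegree (θ : N → ℂ)).factorization p = minExp p b := by omega
  -- the orbit is trivial
  have hOidx : O.card = (inertia hN (θ : N → ℂ)).index := card_orbit_eq_index hN _
  have hNin : N ≤ inertia hN (θ : N → ℂ) := le_inertia hN (isClassFunction_of_isIrrCharacter θ.2)
  have hdvd : O.card ∣ N.index := by
    rw [hOidx]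
    exact Subgroup.index_dvd_of_le hNin
  obtain ⟨k, hk⟩ := hLN
  rw [hk] at hdvd
  obtain ⟨j, -, hj⟩ := (Nat.dvd_prime_pow hp.out).mp hdvd
  have hj0 : j = 0 := by
    rw [hj, hp.out.factorization_pow, Finsupp.single_eq_same] at hOval
    exact hOval
  have hO2 : (inertia hN (θ : N → ℂ)).index = 1 := by
    rw [← hOidx, hj, hj0, pow_zero]
  have htop : inertia hN (θ : N → ℂ) = ⊤ := Subgroup.index_eq_one.mp hO2
  refine ⟨θ, hθ, ?_, fun g => ?_⟩
  · change (charDegree (θ : N → ℂ)).factorization p - minExp p b = 0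
    omega
  · have : g ∈ inertia hN (θ : N → ℂ) := by rw [htop]; trivial
    exact (mem_inertia hN _ g).mp this

end Invariant

section Stab

variable {G : Type u} [Group G] [Fintype G] [Fintype (IrrCharacter G)] {p : ℕ} [hp : Fact p.Prime]
  {M : Ideal AlgInt} {H : Subgroup G} [hH : H.Normal] [Fintype H] [Fintype (IrrCharacter H)]

theorem blockHeight_blockMap {A A' : Type*} [Group A] [Group A'] (σ : A ≃* A')
    (f : Set (IrrCharacter A)) (χ : IrrCharacter A) :
    blockHeight p (blockMap σ f) ((irrMap σ χ : IrrCharacter A') : A' → ℂ) = blockHeight p f (χ : A → ℂ) := by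
  have h2 : ∀ χ : IrrCharacter A, charDegree ((irrMap σ χ : IrrCharacter A') : A' → ℂ) =
      charDegree (χ : A → ℂ) := by
    intro χ
    rw [charDegree, charDegree, irrMap_apply, map_one]
  rw [blockHeight, blockHeight, h2, blockMap, Set.image_image]
  simp only [h2]

/-- **A height-zero character with large stabilizer.** -/
theorem exists_height_zero_stabilizer (hM : IsPModular p M) {b : Set (IrrCharacter H)} (hb : IsPBlock M b)
    {T : Subgroup G}
    (hT : ∀ g : G, g ∈ T ↔ ∀ θ ∈ b, ∀ θ' : IrrCharacter H,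
      (∀ h h' : H, (h' : G) = g * h * g⁻¹ → (θ' : H → ℂ) h' = (θ : H → ℂ) h) → θ' ∈ b) :
    ∃ θ ∈ b, blockHeight p b (θ : H → ℂ) = 0 ∧ ∃ S : Subgroup G, S ≤ T ∧
      (∀ g : G, g ∈ S ↔ (g ∈ T ∧ ∀ h h' : H, (h' : G) = g * h * g⁻¹ →
        (θ : H → ℂ) h' = (θ : H → ℂ) h)) ∧ ¬ p ∣ S.relIndex T := by
  classical
  have hnormal : ∀ g : G, g ∈ Subgroup.normalizer (H : Set G) := mem_normalizer_of_normal
  -- the stabilizer
  have hTc : ∀ g : G, g ∈ T ↔ ∀ θ ∈ b, conjI (hnormal g) θ ∈ b := by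
    intro g
    constructor
    · intro hgT θ hθ
      refine (hT g⁻¹).mp (T.inv_mem hgT) θ hθ _ fun h h' he => ?_
      rw [conjI_apply]
      refine congrArg _ (Subtype.ext ?_)
      rw [coe_conjOfNormalizer, he]
      group
    · intro h
      rw [← T.inv_mem_iff, hT]
      intro θ hθ θ' hθ'
      have e : θ' = conjI (hnormal g) θ := by
        apply Subtype.ext
        funext k
        rw [conjI_apply]
        apply hθ'
        rw [coe_conjOfNormalizer]
        group
      rw [e]
      exact h θ hθ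
  have hHT : H ≤ T := by
    intro g hg
    rw [hTc]
    intro θ hθ
    have e : conjI (hnormal g) θ = θ := by
      apply Subtype.ext
      funext k
      rw [conjI_apply]
      exact isClassFunction_of_isIrrCharacter θ.2 k ⟨g, hg⟩
    rwa [e]
  -- the Sylow subgroup
  obtain ⟨P⟩ : Nonempty (Sylow p T) := inferInstance
  set P₀ : Subgroup G := (P : Subgroup T).map T.subtype with hP₀
  have hP₀T : P₀ ≤ T := by
    rintro _ ⟨x, -, rfl⟩
    exact x.2
  have hP₀p : IsPGroup p P₀ := P.2.map T.subtype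
  set L : Subgroup G := H ⊔ P₀ with hL
  have hHL : H ≤ L := le_sup_left
  have hLT : L ≤ T := sup_le hHT hP₀T
  have hLn : L ≤ Subgroup.normalizer (H : Set G) := fun g _ => hnormal g
  letI : Fintype L := Fintype.ofFinite _
  haveI := finite_irrCharacter (G := L)
  letI := Fintype.ofFinite (IrrCharacter L)
  letI : Fintype (H.subgroupOf L) := Fintype.ofFinite _
  haveI := finite_irrCharacter (G := H.subgroupOf L)
  letI := Fintype.ofFinite (IrrCharacter (H.subgroupOf L))
  haveI hN' : (H.subgroupOf L).Normal := normal_sg hLn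
  have hb' : IsPBlock M (blockMap (sg hHL) b) := isPBlock_blockMap _ hb
  have hst : ∀ g : L, ∀ θ ∈ blockMap (sg hHL) b, conjIrr hN' g θ ∈ blockMap (sg hHL) b := by
    rintro g _ ⟨θ, hθ, rfl⟩
    rw [conjIrr_sg hHL hLn]
    exact irrMap_mem_blockMap _ _ ((hTc g).mp (hLT g.2) θ hθ)
  have hidx : ∃ k : ℕ, (H.subgroupOf L).index = p ^ k := by
    have h1 : (H.subgroupOf L).index = H.relIndex P₀ := by
      change H.relIndex (H ⊔ P₀) = _
      exact Subgroup.relIndex_sup_left P₀ H
    obtain ⟨n, hn⟩ := IsPGroup.iff_card.mp hP₀p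
    have h2 : H.relIndex P₀ ∣ p ^ n := by
      rw [← hn]
      exact Subgroup.index_dvd_card _
    obtain ⟨j, -, hj⟩ := (Nat.dvd_prime_pow hp.out).mp h2
    exact ⟨j, by rw [h1, hj]⟩
  obtain ⟨θ', hθ', hht, hinv⟩ := exists_invariant_height_zero hM hb' hst hidx
  obtain ⟨θ₀, hθ₀, rfl⟩ := hθ'
  rw [blockHeight_blockMap] at hht
  refine ⟨θ₀, hθ₀, hht, ?_⟩
  -- invariance under `L`
  have hinv₀ : ∀ g ∈ L, ∀ h h' : H, (h' : G) = g * h * g⁻¹ → (θ₀ : H → ℂ) h' = (θ₀ : H → ℂ) h := by
    intro g hg h h' he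
    have h1 := congrFun (hinv ⟨g, hg⟩) (sg hHL h)
    rw [conjOn_apply] at h1
    have h2 : ((irrMap (sg hHL) θ₀ : IrrCharacter (H.subgroupOf L)) : H.subgroupOf L → ℂ) (sg hHL h) =
        (θ₀ : H → ℂ) h := irrMap_apply_map _ _ _
    rw [h2] at h1
    rw [← h1]
    refine congrArg _ (Subtype.ext ?_)
    rw [he]
    rfl
  -- the subgroup `S`
  let S : Subgroup G :=
    { carrier := {g | g ∈ T ∧ ∀ h h' : H, (h' : G) = g * h * g⁻¹ → (θ₀ : H → ℂ) h' = (θ₀ : H → ℂ) h}
      mul_mem' := by
        rintro a c ⟨ha, ha'⟩ ⟨hc, hc'⟩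
        refine ⟨T.mul_mem ha hc, fun h h' he => ?_⟩
        let k : H := ⟨c * h * c⁻¹, hH.conj_mem _ h.2 c⟩
        rw [ha' k h' (by rw [he]; show _ = a * (c * h * c⁻¹) * a⁻¹; group), hc' h k rfl]
      one_mem' := by
        refine ⟨T.one_mem, fun h h' he => ?_⟩
        refine congrArg _ (Subtype.ext ?_)
        rw [he]
        group
      inv_mem' := by
        rintro a ⟨ha, ha'⟩
        refine ⟨T.inv_mem ha, fun h h' he => ?_⟩
        refine (ha' h' h ?_).symm
        rw [he]
        group }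
  refine ⟨S, fun g hg => hg.1, fun g => Iff.rfl, ?_⟩
  have hP₀S : P₀ ≤ S := fun g hg => ⟨hP₀T hg, hinv₀ g (le_sup_right (a := H) hg)⟩
  have hST : S ≤ T := fun g hg => hg.1
  intro hdvd
  have h1 := Subgroup.relIndex_mul_relIndex P₀ S T hP₀S hST
  have h2 : p ∣ P₀.relIndex T := by
    rw [← h1]
    exact hdvd.mul_left _
  apply P.not_dvd_index
  have e : P₀.relIndex T = (P : Subgroup T).index := by
    rw [Subgroup.relIndex, Subgroup.subgroupOf, hP₀, Subgroup.comap_map_eq_self_of_injective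
      (Subgroup.subtype_injective _)]
  rwa [e] at h2

end Stab

end Cfsg.Agent.Lib.Blocks.Height0
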