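import Mathlib
import Cfsg.Agent.Lib.Blocks.Height0
import Cfsg.Agent.Lib.Char.Galois

/-!
# Faithful characters of `p`-power degree

`Z(G) = 1`, `χ` faithful irreducible of `p`-power degree: the block of `χ` has defect at most `a - b`,
where `p ^ a = #P`, `p ^ b = #Z(P)`.
-/

set_option linter.unusedSectionVars false
set_option autoImplicit false
set_option linter.style.haveILetI false

namespace Cfsg.Agent.Lib.Blocks.PPowerDeg

open Cfsg MonoidAlgebra
open Cfsg.Agent.Lib.Blocks.Local Cfsg.Agent.Lib.Blocks.Central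
open Cfsg.Agent.Lib.Blocks.Heights
open Cfsg.Agent.Lib.Char.Basic Cfsg.Agent.Lib.Char.Ortho Cfsg.Agent.Lib.Char.Complete
open Cfsg.Agent.Lib.BlockP.Defect Cfsg.Agent.Lib.BlockP.InducedDeg Cfsg.Agent.Lib.Blocks.Height0
open scoped ComplexConjugate

universe u

variable {G : Type u} [Group G] [Fintype G]

/-- Burnside's vanishing for a faithful character of a group with trivial centre. -/
theorem eq_zero_of_coprime_index {χ : G → ℂ} (hχ : IsIrrCharacter G χ)
    (hfaith : ∀ g : G, χ g = χ 1 → g = 1) (hZ : Subgroup.center G = ⊥) {z : G} (hz : z ≠ 1)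
    (hcop : Nat.Coprime (charDegree χ) (Subgroup.centralizer ({z} : Set G)).index) : χ z = 0 := by
  obtain ⟨n, ρ, hρ, rfl⟩ := hχ
  haveI := hρ
  have hdeg : charDegree ρ.character = Module.finrank ℂ (Fin n → ℂ) := by
    have h1 := Cfsg.Agent.Lib.Char.Degree.charDegree_natCast (G := G) (χ := ρ.character) ⟨n, ρ, rfl⟩
    rw [Representation.char_one] at h1
    exact_mod_cast h1
  rw [hdeg] at hcop
  rcases Cfsg.Agent.Lib.Char.Galois.character_eq_zero_or_norm_eq_of_coprime ρ z hcop with h | h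
  · exact h
  · exfalso
    obtain ⟨ω, hω⟩ := (Cfsg.Agent.Lib.Char.Eigen.norm_character_eq_iff_scalar ρ z).mp h
    apply hz
    have hc : z ∈ Subgroup.center G := by
      rw [Subgroup.mem_center_iff]
      intro g
      have h1 : ρ (g * z * g⁻¹ * z⁻¹) = LinearMap.id := by
        have h2 : ρ (g * z * g⁻¹) = ρ z := by
          rw [map_mul, map_mul, hω]
          apply LinearMap.ext
          intro v
          simp only [Module.End.mul_apply, LinearMap.smul_apply, LinearMap.id_apply, map_smul]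
          have : ρ g (ρ g⁻¹ v) = v := by
            rw [← Module.End.mul_apply, ← map_mul, mul_inv_cancel, map_one, Module.End.one_apply]
          rw [this]
        rw [map_mul, h2]
        have h3 : ρ z * ρ z⁻¹ = 1 := by
          rw [← map_mul, mul_inv_cancel, map_one]
        rw [h3]
        rfl
      have h2 := (Cfsg.Agent.Lib.Char.Eigen.character_eq_finrank_iff ρ _).mpr h1
      rw [← Representation.char_one ρ] at h2
      have h3 := hfaith _ h2
      have h4 : g * z * g⁻¹ = z := by
        calc g * z * g⁻¹ = g * z * g⁻¹ * z⁻¹ * z := by group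
          _ = z := by rw [h3, one_mul]
      calc g * z = g * z * g⁻¹ * g := by group
        _ = z * g := by rw [h4]
    rw [hZ] at hc
    exact hc

variable [Fintype (IrrCharacter G)] {p : ℕ} [hp : Fact p.Prime] {M : Ideal AlgInt}

/-- The `p`-part of the degree of members of a block of a character vanishing on a `p`-subgroup. -/
theorem pow_card_le_minExp (hM : IsPModular p M) {χ : IrrCharacter G} {Z : Subgroup G} {b : ℕ}
    (hcard : Nat.card Z = p ^ b)
    (hvan : ∀ z ∈ Z, z ≠ 1 → (χ : G → ℂ) z = 0)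
    (hind : ∀ z ∈ Z, ¬ p ∣ (Subgroup.centralizer ({z} : Set G)).index) :
    b ≤ minExp p (blockOf M (χ : G → ℂ)) := by
  classical
  haveI := isPrime_of_pModular hM
  letI : Fintype Z := Fintype.ofFinite _
  obtain ⟨χ₀, hχ₀, hmin⟩ := exists_minExp p (B := blockOf M (χ : G → ℂ)) ⟨χ, mem_blockOf_self χ⟩
  rw [← hmin]
  have hone : IsCharacter Z (fun _ => (1 : ℂ)) :=
    isCharacter_of_isIrrCharacter Cfsg.Agent.Lib.Char.Burnside.isIrrCharacter_one
  obtain ⟨m, hm⟩ := exists_nat_classInner
    (isCharacter_restrict Z (isCharacter_of_isIrrCharacter χ₀.2)) hone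
  have hcardc : (Nat.card Z : ℂ) ≠ 0 := by exact_mod_cast Nat.card_pos.ne'
  have hsum : ∑ z : Z, (χ₀ : G → ℂ) z = (Nat.card Z : ℂ) * m := by
    rw [← hm, classInner, ← mul_assoc, mul_inv_cancel₀ hcardc, one_mul]
    refine Fintype.sum_congr _ _ fun z => ?_
    simp
  have hdeg0 := charDegree_ne_zero_irr χ₀
  have hdegc : (charDegree (χ₀ : G → ℂ) : ℂ) ≠ 0 := by exact_mod_cast hdeg0
  have hJ : ∀ z : Z, z ≠ 1 → MemLocalIdeal M ((χ₀ : G → ℂ) z / (charDegree (χ₀ : G → ℂ) : ℂ)) := by
    intro z hz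
    have hz1 : (z : G) ≠ 1 := fun h => hz (Subtype.ext h)
    have h1 : SameBlock M (χ : G → ℂ) (χ₀ : G → ℂ) := hχ₀
    have h2 := h1 (z : G)
    have h3 : centralChar (χ : G → ℂ) (z : G) = 0 := by
      rw [centralChar, hvan z z.2 hz1]
      simp
    rw [h3, zero_sub] at h2
    have h4 := memLocalIdeal_neg h2
    rw [neg_neg] at h4
    have h5 := memLocalIdeal_mul_left (memLocalRing_natCast_inv hM (hind z z.2)) h4
    have hi : ((Subgroup.centralizer ({(z : G)} : Set G)).index : ℂ) ≠ 0 := by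
      exact_mod_cast Subgroup.index_ne_zero_of_finite
    have e : (((Subgroup.centralizer ({(z : G)} : Set G)).index : ℂ))⁻¹ * centralChar (χ₀ : G → ℂ) z =
        (χ₀ : G → ℂ) z / (charDegree (χ₀ : G → ℂ) : ℂ) := by
      rw [centralChar, irr_one_eq]
      field_simp
    rwa [e] at h5
  have hn : MemLocalIdeal M (((p ^ b * m : ℕ) : ℂ) / (charDegree (χ₀ : G → ℂ) : ℂ) - 1) := by
    have e : ((p ^ b * m : ℕ) : ℂ) / (charDegree (χ₀ : G → ℂ) : ℂ) - 1 =
        ∑ z ∈ Finset.univ.erase (1 : Z), (χ₀ : G → ℂ) z / (charDegree (χ₀ : G → ℂ) : ℂ) := by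
      rw [← Finset.sum_div]
      have h1 := Finset.add_sum_erase Finset.univ (fun z : Z => (χ₀ : G → ℂ) z) (Finset.mem_univ (1 : Z))
      have h2 : (χ₀ : G → ℂ) ((1 : Z) : G) = (charDegree (χ₀ : G → ℂ) : ℂ) := irr_one_eq χ₀
      rw [h2, hsum, hcard] at h1
      have h3 : ((p ^ b * m : ℕ) : ℂ) = (charDegree (χ₀ : G → ℂ) : ℂ) +
          ∑ z ∈ Finset.univ.erase (1 : Z), (χ₀ : G → ℂ) z := by
        rw [h1]
        push_cast
        ring
      rw [h3]
      field_simp
      ring
    rw [e]
    apply memLocalIdeal_sum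
    intro z hz
    exact hJ z (Finset.ne_of_mem_erase hz)
  obtain ⟨hn0, hval⟩ := factorization_eq_of_sub_one_mem hM hdeg0 hn
  rw [← hval]
  have hm0 : m ≠ 0 := by
    rintro rfl
    simp at hn0
  rw [Nat.factorization_mul (pow_ne_zero _ hp.out.ne_zero) hm0, hp.out.factorization_pow]
  simp

/-- **Faithful characters of `p`-power degree.** -/
theorem blockDefect_le (hM : IsPModular p M) (hZ : Subgroup.center G = ⊥) (P : Sylow p G) {a b : ℕ}
    (ha : Nat.card P = p ^ a) (hb : Nat.card (Subgroup.center ↥(P : Subgroup G)) = p ^ b)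
    (χ : IrrCharacter G) (hfaith : ∀ g : G, (χ : G → ℂ) g = (χ : G → ℂ) 1 → g = 1) {n : ℕ}
    (hdeg : charDegree (χ : G → ℂ) = p ^ n) :
    blockDefect p (blockOf M (χ : G → ℂ)) ≤ a - b := by
  classical
  haveI := isPrime_of_pModular hM
  set Z : Subgroup G := (Subgroup.center ↥(P : Subgroup G)).map (P : Subgroup G).subtype with hZdef
  have hZcard : Nat.card Z = p ^ b := by
    rw [hZdef, Subgroup.card_map_of_injective (Subgroup.subtype_injective _), hb]
  have hindex : ∀ z ∈ Z, ¬ p ∣ (Subgroup.centralizer ({z} : Set G)).index := by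
    rintro _ ⟨u, hu, rfl⟩ hdvd
    apply P.not_dvd_index
    have hle : (P : Subgroup G) ≤ Subgroup.centralizer ({(u : G)} : Set G) := by
      intro x hx
      rw [Subgroup.mem_centralizer_singleton_iff]
      have h1 := (Subgroup.mem_center_iff.mp hu) ⟨x, hx⟩
      exact congrArg Subtype.val h1
    exact hdvd.trans (Subgroup.index_dvd_of_le hle)
  have hvan : ∀ z ∈ Z, z ≠ 1 → (χ : G → ℂ) z = 0 := by
    intro z hz hz1
    refine eq_zero_of_coprime_index χ.2 hfaith hZ hz1 ?_
    rw [hdeg]
    exact Nat.Coprime.pow_left n ((Nat.Prime.coprime_iff_not_dvd hp.out).mpr (hindex z hz))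
  have h1 := pow_card_le_minExp hM (M := M) hZcard hvan hindex
  have h2 := blockDefect_add_minExp (G := G) (p := p) (B := blockOf M (χ : G → ℂ)) ⟨χ, mem_blockOf_self χ⟩
  have h3 : (Nat.card G).factorization p = a := by
    have h4 := P.card_eq_multiplicity
    rw [ha] at h4
    exact (Nat.pow_right_injective hp.out.two_le h4).symm
  omega

end Cfsg.Agent.Lib.Blocks.PPowerDeg
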