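import Mathlib
import Cfsg.Agent.S0902
import Cfsg.Agent.Lib.Blocks.Heights
import Cfsg.Agent.Lib.Blocks.Third

/-!
# Groups without elements of order `pq`

If `G` has no element of order `pq`, the sum of `χ(1) χ(y)` over a `p`-block intersected with a `q`-block
is divisible by the `q`-part of `#G`, for `p`-singular `y`.
-/

set_option linter.unusedSectionVars false
set_option autoImplicit false
set_option linter.style.haveILetI false

namespace Cfsg.Agent.Lib.Blocks.PQ

open Cfsg MonoidAlgebra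
open Cfsg.Agent.Lib.Blocks.Local Cfsg.Agent.Lib.Blocks.Central
open Cfsg.Agent.Lib.Blocks.Main Cfsg.Agent.Lib.Blocks.Heights Cfsg.Agent.Lib.Blocks.PPart
open Cfsg.Agent.Lib.Char.Basic Cfsg.Agent.Lib.Char.Ortho
open scoped ComplexConjugate

universe u

/-- An element which is local at each maximal ideal is an algebraic integer. -/
theorem isIntegral_of_forall_local {x : ℂ} (h : ∀ M : Ideal AlgInt, M.IsMaximal → MemLocalRing M x) :
    IsIntegral ℤ x := by
  let I : Ideal AlgInt :=
    { carrier := {r | IsIntegral ℤ ((r : ℂ) * x)}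
      add_mem' := by
        intro a b ha hb
        have : (((a + b : AlgInt)) : ℂ) * x = (a : ℂ) * x + (b : ℂ) * x := by
          push_cast
          ring
        show IsIntegral ℤ _
        rw [this]
        exact IsIntegral.add ha hb
      zero_mem' := by
        show IsIntegral ℤ _
        simpa using isIntegral_zero
      smul_mem' := by
        intro c a ha
        have : ((c • a : AlgInt) : ℂ) * x = (c : ℂ) * ((a : ℂ) * x) := by
          simp [mul_assoc]
        show IsIntegral ℤ _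
        rw [this]
        exact IsIntegral.mul c.2 ha }
  by_cases hI : I = ⊤
  · have h1 : (1 : AlgInt) ∈ I := by rw [hI]; trivial
    have h2 : IsIntegral ℤ (((1 : AlgInt) : ℂ) * x) := h1
    simpa using h2
  · exfalso
    obtain ⟨M, hM, hIM⟩ := Ideal.exists_le_maximal I hI
    obtain ⟨a, b, hb, hab⟩ := h M hM
    apply hb
    apply hIM
    show IsIntegral ℤ ((b : ℂ) * x)
    have hb0 : (b : ℂ) ≠ 0 := by
      intro h0
      apply hb
      have : b = 0 := Subtype.ext h0
      rw [this]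
      exact M.zero_mem
    rw [← hab, mul_div_cancel₀ _ hb0]
    exact a.2

variable {G : Type u} [Group G] [Fintype G]

theorem isPPart_conj {p : ℕ} {g z : G} (h : IsPPart p g z) (c : G) :
    IsPPart p (c * g * c⁻¹) (c * z * c⁻¹) := by
  obtain ⟨y, rfl, hc, ⟨k, hk⟩, hy⟩ := h
  refine ⟨c * y * c⁻¹, by group, ?_, ⟨k, ?_⟩, ?_⟩
  · show c * z * c⁻¹ * (c * y * c⁻¹) = c * y * c⁻¹ * (c * z * c⁻¹)
    have e1 : c * z * c⁻¹ * (c * y * c⁻¹) = c * (z * y) * c⁻¹ := by group
    have e2 : c * y * c⁻¹ * (c * z * c⁻¹) = c * (y * z) * c⁻¹ := by group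
    rw [e1, e2, hc.eq]
  · rw [← hk]
    exact orderOf_injective (MulAut.conj c).toMonoidHom (MulEquiv.injective _) z
  · have : orderOf (c * y * c⁻¹) = orderOf y :=
      orderOf_injective (MulAut.conj c).toMonoidHom (MulEquiv.injective _) y
    rwa [this]

/-- The sum of a class function, in terms of the classes. -/
theorem sum_class (h : G → ℂ) (hh : ∀ g c : G, h (c * g * c⁻¹) = h g) [Fintype (ConjClasses G)]
    [Fintype (IrrCharacter G)] :
    ∑ g : G, h g = ∑ C : ConjClasses G,
      ((Subgroup.centralizer ({C.out} : Set G)).index : ℂ) * h C.out := by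
  let z : Subalgebra.center ℂ (GA G) := ⟨ofFun h, (mem_center_iff _).mpr fun g c => by
    simp only [coeff_ofFun]
    exact hh g c⟩
  have h1 := omegaHom_eq_sum_classes (Cfsg.Agent.Lib.Blocks.Third.oneI G) z
  rw [omegaHom_apply, lin_apply] at h1
  simp only [Cfsg.Agent.Lib.Blocks.Third.oneI_apply, mul_one, div_one] at h1
  have h2 : ∀ g, (z : GA G).coeff g = h g := fun g => rfl
  simp only [h2] at h1
  rw [h1]
  refine Fintype.sum_congr _ _ fun C => ?_
  rw [centralChar]
  simp only [Cfsg.Agent.Lib.Blocks.Third.oneI_apply, mul_one, div_one]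
  ring

variable {p q : ℕ} [hp : Fact p.Prime] [hq : Fact q.Prime]

/-- Without elements of order `pq`, the centralizer of a `p`-singular element is a `q'`-group. -/
theorem not_dvd_card_centralizer (hpq : p ≠ q) (hno : ∀ g : G, orderOf g ≠ p * q) {g : G}
    (hg : p ∣ orderOf g) : ¬ q ∣ Nat.card (Subgroup.centralizer ({g} : Set G)) := by
  intro hd
  obtain ⟨c, hc⟩ := exists_prime_orderOf_dvd_card' (G := Subgroup.centralizer ({g} : Set G)) q hd
  have hg0 : orderOf g ≠ 0 := (orderOf_pos g).ne'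
  have h1 : orderOf (g ^ (orderOf g / p)) = p := orderOf_pow_orderOf_div hg0 hg
  have hcg : Commute (c : G) g := Subgroup.mem_centralizer_singleton_iff.mp c.2
  have h2 : Commute (c : G) (g ^ (orderOf g / p)) := hcg.pow_right _
  have hco : (orderOf (c : G)).Coprime (orderOf (g ^ (orderOf g / p))) := by
    rw [h1, Subgroup.orderOf_coe, hc]
    exact (Nat.coprime_primes hq.out hp.out).mpr hpq.symm
  have h3 := h2.orderOf_mul_eq_mul_orderOf_of_coprime hco
  rw [h1, Subgroup.orderOf_coe, hc, mul_comm] at h3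
  exact hno _ h3

theorem pow_dvd_index {b : ℕ} (hb : (Nat.card G).factorization q = b) {H : Subgroup G}
    (hH : ¬ q ∣ Nat.card H) : q ^ b ∣ H.index := by
  have h1 := H.card_mul_index
  have h2 : q ^ b ∣ Nat.card G := by
    rw [← hb]
    exact Nat.ordProj_dvd _ _
  rw [← h1] at h2
  refine Nat.Coprime.dvd_of_dvd_mul_left ?_ h2
  exact Nat.Coprime.pow_left b ((Nat.Prime.coprime_iff_not_dvd hq.out).mpr hH)

variable [Fintype (IrrCharacter G)]

/-- The local statement. -/
theorem local_main {Mp Mq : Ideal AlgInt} (hMp : IsPModular p Mp) (hMq : IsPModular q Mq) (hpq : p ≠ q)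
    (hno : ∀ g : G, orderOf g ≠ p * q) {b : ℕ} (hb : (Nat.card G).factorization q = b)
    {Bp Bq : Set (IrrCharacter G)} (hBp : IsPBlock Mp Bp) (hBq : IsPBlock Mq Bq) {y : G}
    (hy : p ∣ orderOf y) [DecidablePred (· ∈ Bp)] [DecidablePred (· ∈ Bq)] :
    MemLocalRing Mq ((∑ χ : IrrCharacter G, if χ ∈ Bp ∧ χ ∈ Bq then
      (χ : G → ℂ) 1 * (χ : G → ℂ) y else 0) / (q : ℂ) ^ b) := by
  classical
  haveI := isPrime_of_pModular hMp
  haveI hMqP := isPrime_of_pModular hMq
  letI : Fintype (ConjClasses G) := Fintype.ofFinite _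
  obtain ⟨x, hx⟩ := exists_isPPart (p := p) y
  have hcardC : (Nat.card G : ℂ) ≠ 0 := by exact_mod_cast Nat.card_pos.ne'
  -- the section
  let Sec : G → Prop := fun g => ∃ z, IsPPart p g z ∧ IsConj x z
  have hSec : ∀ g c : G, Sec (c * g * c⁻¹) ↔ Sec g := by
    have key : ∀ g c : G, Sec g → Sec (c * g * c⁻¹) := by
      rintro g c ⟨z, hz, hxz⟩
      exact ⟨_, isPPart_conj hz c, hxz.trans (isConj_iff.mpr ⟨c, rfl⟩)⟩
    intro g c
    refine ⟨fun h => ?_, key g c⟩
    have := key _ c⁻¹ h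
    have e : c⁻¹ * (c * g * c⁻¹) * c⁻¹⁻¹ = g := by group
    rwa [e] at this
  have hx1 : x ≠ 1 := by
    rintro rfl
    obtain ⟨u, hu, -, -, hu'⟩ := hx
    rw [one_mul] at hu
    rw [hu] at hu'
    exact hu' hy
  have hSecp : ∀ g, Sec g → p ∣ orderOf g := by
    rintro g ⟨z, hz, hxz⟩
    have hz1 : z ≠ 1 := by
      rintro rfl
      exact hx1 (by simpa using hxz)
    have hz' := hz
    obtain ⟨u, hu, -, ⟨k, hk⟩, -⟩ := hz
    have hk0 : k ≠ 0 := by
      rintro rfl
      rw [pow_zero, orderOf_eq_one_iff] at hk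
      exact hz1 hk
    have h1 : p ∣ orderOf z := by
      rw [hk]
      exact dvd_pow_self p hk0
    obtain ⟨m, hm⟩ := isPPart_eq_zpow hz' 1
      (by
        intro h
        have := Int.le_of_dvd one_pos h
        have hp2 : 2 ≤ p := hp.out.two_le
        omega)
    rw [zpow_one] at hm
    have h2 : orderOf z ∣ orderOf g := by
      rw [hm]
      apply orderOf_dvd_of_pow_eq_one
      rw [← zpow_natCast, ← zpow_mul, mul_comm, zpow_mul, zpow_natCast, pow_orderOf_eq_one, one_zpow]
    exact h1.trans h2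
  -- the function
  let F : G → ℂ := fun g => ∑ χ : IrrCharacter G, if χ ∈ Bq then (χ : G → ℂ) 1 * (χ : G → ℂ) g else 0
  have hFcoeff : ∀ g, F g = (Nat.card G : ℂ) * blockCoeff Bq g⁻¹ := by
    intro g
    rw [blockCoeff_eq_sum, ← mul_assoc, mul_inv_cancel₀ hcardC, one_mul]
    refine Fintype.sum_congr _ _ fun χ => ?_
    split_ifs
    · rw [char_inv_eq_conj (isCharacter_of_isIrrCharacter χ.2), Complex.conj_conj]
    · rfl
  have hFcl : IsClassFunction G F := by
    intro g c
    simp only [F]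
    refine Fintype.sum_congr _ _ fun χ => ?_
    rw [isClassFunction_of_isIrrCharacter χ.2 g c]
  have hFin : ∀ χ : IrrCharacter G, classInner F (χ : G → ℂ) = if χ ∈ Bq then (χ : G → ℂ) 1 else 0 := by
    intro χ
    have h1 : F = ∑ ψ : IrrCharacter G, (if ψ ∈ Bq then (ψ : G → ℂ) 1 else 0) • (ψ : G → ℂ) := by
      funext g
      simp only [F, Finset.sum_apply, Pi.smul_apply, smul_eq_mul]
      refine Fintype.sum_congr _ _ fun ψ => ?_
      split_ifs <;> simp
    rw [h1, classInner_sum_left, Finset.sum_eq_single χ]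
    · rw [classInner_smul_left, classInner_self_of_isIrr χ.2, mul_one]
    · intro j _ hj
      rw [classInner_smul_left, classInner_eq_zero_of_isIrr_of_ne j.2 χ.2
        (fun h => hj (Subtype.ext h)), mul_zero]
    · intro h
      exact absurd (Finset.mem_univ _) h
  let F₁ : G → ℂ := fun g => if Sec g then F g else 0
  let F₂ : G → ℂ := fun g => F g - F₁ g
  have hF₁cl : IsClassFunction G F₁ := by
    intro g c
    simp only [F₁, hSec g c, hFcl g c]
  have hF₂cl : IsClassFunction G F₂ := by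
    intro g c
    simp only [F₂]
    rw [hFcl g c, hF₁cl g c]
  have hvan : ∀ u z : G, IsPPart p u z → IsConj x z → F₂ u = 0 := by
    intro u z hu hxz
    have : Sec u := ⟨z, hu, hxz⟩
    simp only [F₂, F₁, if_pos this, sub_self]
  have hF₂0 := blockPart_eq_zero_of_section hMp hF₂cl hvan hBp hx (IsConj.refl x)
  rw [blockPart_apply] at hF₂0
  -- rewriting the sum
  have hsum : (∑ χ : IrrCharacter G, if χ ∈ Bp ∧ χ ∈ Bq then (χ : G → ℂ) 1 * (χ : G → ℂ) y else 0) =
      ∑ χ : IrrCharacter G, if χ ∈ Bp then classInner F₁ (χ : G → ℂ) * (χ : G → ℂ) y else 0 := by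
    have h1 : ∀ χ : IrrCharacter G, classInner F (χ : G → ℂ) =
        classInner F₁ (χ : G → ℂ) + classInner F₂ (χ : G → ℂ) := by
      intro χ
      simp only [classInner, F₂]
      rw [← mul_add, ← Finset.sum_add_distrib]
      congr 1
      refine Fintype.sum_congr _ _ fun g => ?_
      ring
    have h2 : (∑ χ : IrrCharacter G, if χ ∈ Bp ∧ χ ∈ Bq then (χ : G → ℂ) 1 * (χ : G → ℂ) y else 0) =
        ∑ χ : IrrCharacter G, if χ ∈ Bp then classInner F (χ : G → ℂ) * (χ : G → ℂ) y else 0 := by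
      refine Fintype.sum_congr _ _ fun χ => ?_
      rw [hFin]
      by_cases h1 : χ ∈ Bp <;> by_cases h2 : χ ∈ Bq <;> simp [h1, h2]
    rw [h2]
    have h3 := hF₂0
    have h4 : (∑ χ : IrrCharacter G, if χ ∈ Bp then classInner F (χ : G → ℂ) * (χ : G → ℂ) y else 0) =
        (∑ χ : IrrCharacter G, if χ ∈ Bp then classInner F₁ (χ : G → ℂ) * (χ : G → ℂ) y else 0) +
        ∑ χ : IrrCharacter G, if χ ∈ Bp then classInner F₂ (χ : G → ℂ) * (χ : G → ℂ) y else 0 := by
      rw [← Finset.sum_add_distrib]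
      refine Fintype.sum_congr _ _ fun χ => ?_
      split_ifs
      · rw [h1]
        ring
      · simp
    rw [h4, h3, add_zero]
  rw [hsum, Finset.sum_div]
  apply memLocalRing_sum
  intro χ _
  split_ifs
  swap
  · simpa using memLocalRing_zero
  -- the main term
  let h : G → ℂ := fun g => if Sec g then blockCoeff Bq g⁻¹ * conj ((χ : G → ℂ) g) else 0
  have hh : ∀ g c : G, h (c * g * c⁻¹) = h g := by
    intro g c
    simp only [h, hSec g c]
    have e : (c * g * c⁻¹)⁻¹ = c * g⁻¹ * c⁻¹ := by group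
    rw [e, blockCoeff_conj_invariant, isClassFunction_of_isIrrCharacter χ.2 g c]
  have hin : classInner F₁ (χ : G → ℂ) = ∑ g : G, h g := by
    rw [classInner, Finset.mul_sum]
    refine Fintype.sum_congr _ _ fun g => ?_
    simp only [F₁, h]
    split_ifs
    · rw [hFcoeff, ← mul_assoc, ← mul_assoc, inv_mul_cancel₀ hcardC, one_mul]
    · simp
  have hq0 : (q : ℂ) ≠ 0 := by exact_mod_cast hq.out.ne_zero
  have hterm : MemLocalRing Mq (classInner F₁ (χ : G → ℂ) / (q : ℂ) ^ b) := by
    rw [hin, sum_class h hh, Finset.sum_div]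
    apply memLocalRing_sum
    intro C _
    by_cases hC : Sec C.out
    · obtain ⟨m, hm⟩ := pow_dvd_index hb (not_dvd_card_centralizer hpq hno (hSecp _ hC))
      have e : ((Subgroup.centralizer ({C.out} : Set G)).index : ℂ) * h C.out / (q : ℂ) ^ b =
          (m : ℂ) * h C.out := by
        rw [hm]
        push_cast
        field_simp
      rw [e]
      apply memLocalRing_mul (memLocalRing_natCast _)
      simp only [h, if_pos hC]
      apply memLocalRing_mul (idem_mem_localCenter hBq _)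
      rw [← char_inv_eq_conj (isCharacter_of_isIrrCharacter χ.2)]
      exact memLocalRing_of_isIntegral (Cfsg.Agent.Lib.BlockP.Stable.isIntegral_irr χ _)
    · simp only [h, if_neg hC, mul_zero, zero_div]
      exact memLocalRing_zero
  have e : classInner F₁ (χ : G → ℂ) * (χ : G → ℂ) y / (q : ℂ) ^ b =
      (classInner F₁ (χ : G → ℂ) / (q : ℂ) ^ b) * (χ : G → ℂ) y := by ring
  rw [e]
  exact memLocalRing_mul hterm (memLocalRing_of_isIntegral (Cfsg.Agent.Lib.BlockP.Stable.isIntegral_irr χ _))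

/-- A block is a block for each maximal ideal above the prime. -/
theorem isPBlock_change {M M' : Ideal AlgInt} (hM : IsPModular q M) (hM' : IsPModular q M')
    {B : Set (IrrCharacter G)} (hB : IsPBlock M B) : IsPBlock M' B := by
  haveI := isPrime_of_pModular hM
  haveI := isPrime_of_pModular hM'
  obtain ⟨χ, rfl⟩ := hB
  refine ⟨χ, ?_⟩
  ext ψ
  constructor
  · intro h g
    obtain ⟨r, hr, he⟩ := Cfsg.Agent.S0902.result q M hM χ ψ h M' hM' g
    rw [← he]
    exact memLocalIdeal_coe_iff.mpr hr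
  · intro h g
    obtain ⟨r, hr, he⟩ := Cfsg.Agent.S0902.result q M' hM' χ ψ h M hM g
    rw [← he]
    exact memLocalIdeal_coe_iff.mpr hr

/-- **The global statement.** -/
theorem global_main {Mp Mq : Ideal AlgInt} (hMp : IsPModular p Mp) (hMq : IsPModular q Mq) (hpq : p ≠ q)
    (hno : ∀ g : G, orderOf g ≠ p * q) {b : ℕ} (hb : (Nat.card G).factorization q = b)
    {Bp Bq : Set (IrrCharacter G)} (hBp : IsPBlock Mp Bp) (hBq : IsPBlock Mq Bq) {y : G}
    (hy : p ∣ orderOf y) :
    ∃ ω : AlgInt, ∑ᶠ χ ∈ Bp ∩ Bq, (charDegree (χ : G → ℂ) : ℂ) * (χ : G → ℂ) y =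
      (q : ℂ) ^ b * (ω : ℂ) := by
  classical
  have hq0 : (q : ℂ) ≠ 0 := by exact_mod_cast hq.out.ne_zero
  have hα : ∑ᶠ χ ∈ Bp ∩ Bq, (charDegree (χ : G → ℂ) : ℂ) * (χ : G → ℂ) y =
      ∑ χ : IrrCharacter G, if χ ∈ Bp ∧ χ ∈ Bq then (χ : G → ℂ) 1 * (χ : G → ℂ) y else 0 := by
    rw [finsum_mem_eq_sum_ite]
    refine Fintype.sum_congr _ _ fun χ => ?_
    simp only [Set.mem_inter_iff, irr_one_eq]
  rw [hα]
  set α := ∑ χ : IrrCharacter G, if χ ∈ Bp ∧ χ ∈ Bq then (χ : G → ℂ) 1 * (χ : G → ℂ) y else 0 with hαd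
  have hαi : IsIntegral ℤ α := by
    apply IsIntegral.sum
    intro χ _
    split_ifs
    · exact (Cfsg.Agent.Lib.BlockP.Stable.isIntegral_irr χ _).mul
        (Cfsg.Agent.Lib.BlockP.Stable.isIntegral_irr χ _)
    · exact isIntegral_zero
  have hint : IsIntegral ℤ (α / (q : ℂ) ^ b) := by
    apply isIntegral_of_forall_local
    intro M hM
    by_cases hqM : (q : AlgInt) ∈ M
    · have hM' : IsPModular q M := ⟨hq.out, hM, hqM⟩
      exact local_main hMp hM' hpq hno hb hBp (isPBlock_change hMq hM' hBq) hy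
    · refine ⟨⟨α, hαi⟩, (q : AlgInt) ^ b, fun h => hqM (hM.isPrime.mem_of_pow_mem _ h), ?_⟩
      push_cast
      rfl
  refine ⟨⟨_, hint⟩, ?_⟩
  show α = (q : ℂ) ^ b * (α / (q : ℂ) ^ b)
  field_simp

end Cfsg.Agent.Lib.Blocks.PQ
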